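import Mathlib.GroupTheory.Focal
import Mathlib.GroupTheory.SpecificGroups.KleinFour
import Cfsg.Agent.Lib.Fusion.DihedralType
import Cfsg.Agent.Lib.Involution.DihedralHom

/-!
Simple groups with an involution centraliser having a cyclic subgroup `B` of index two such that
`B` has index at most two in the centraliser of each of its nontrivial elements: the Sylow
2-subgroups are dihedral and elements outside `B` invert the odd part of `B` or centralise it.
-/

set_option autoImplicit false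

namespace Cfsg.Agent.Lib.PSLSpec

open Subgroup
open scoped commutatorElement

universe u

variable {N : Type u} [Group N]

/-- A cyclic subgroup containing an involution. -/
structure Data (N : Type u) [Group N] where
  B : Subgroup N
  t : N
  cyc : IsCyclic B
  t_mem : t ∈ B
  t_ord : orderOf t = 2
  small : ∀ b ∈ B, b ≠ 1 → B.relIndex (centralizer ({b} : Set N)) ∣ 2
  cop : (Nat.card (centralizer ({t} : Set N))).Coprime (centralizer ({t} : Set N)).index
  klein : ∃ E : Subgroup N, IsKleinFour E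

theorem unique_invol [Finite N] {B : Subgroup N} (hB : IsCyclic B) {a b : N} (ha : a ∈ B)
    (hb : b ∈ B) (ha2 : orderOf a = 2) (hb2 : orderOf b = 2) : a = b := by
  classical
  haveI := hB
  haveI : Fintype B := Fintype.ofFinite B
  have h := IsCyclic.card_orderOf_eq_totient (α := B) (d := 2) (by
    rw [← Nat.card_eq_fintype_card, ← ha2]; exact orderOf_dvd_natCard B ha)
  rw [Nat.totient_two, Finset.card_eq_one] at h
  obtain ⟨c, hc⟩ := h
  have h1 : (⟨a, ha⟩ : B) ∈ ({c} : Finset B) := hc ▸ Finset.mem_filter.2 ⟨Finset.mem_univ _, by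
    rw [Subgroup.orderOf_mk]; exact ha2⟩
  have h2 : (⟨b, hb⟩ : B) ∈ ({c} : Finset B) := hc ▸ Finset.mem_filter.2 ⟨Finset.mem_univ _, by
    rw [Subgroup.orderOf_mk]; exact hb2⟩
  rw [Finset.mem_singleton] at h1 h2
  exact congrArg Subtype.val (h1.trans h2.symm)

theorem mul_comm_of_cyclic {B : Subgroup N} (hB : IsCyclic B) {a b : N} (ha : a ∈ B) (hb : b ∈ B) :
    a * b = b * a := by
  haveI := hB
  obtain ⟨g, hg⟩ := IsCyclic.exists_generator (α := B)
  obtain ⟨i, hi⟩ := mem_zpowers_iff.1 (hg ⟨a, ha⟩)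
  obtain ⟨j, hj⟩ := mem_zpowers_iff.1 (hg ⟨b, hb⟩)
  have h : (⟨a, ha⟩ : B) * ⟨b, hb⟩ = ⟨b, hb⟩ * ⟨a, ha⟩ := by
    rw [← hi, ← hj, ← zpow_add, ← zpow_add, add_comm]
  exact congrArg Subtype.val h

/-- Focal criterion. -/
theorem sylow_le_of_focal [Finite N] (hs : IsSimpleGroup N) (hna : ∃ a b : N, a * b ≠ b * a)
    {p : ℕ} [Fact p.Prime] (S : Sylow p N) (M : Subgroup N)
    (h : ∀ x ∈ (S : Subgroup N), ∀ v : N, ⁅x, v⁆ ∈ (S : Subgroup N) → ⁅x, v⁆ ∈ M) :
    (S : Subgroup N) ≤ M := by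
  have hperf : _root_.commutator N = ⊤ := by
    refine (hs.eq_bot_or_eq_top_of_normal _ inferInstance).resolve_left fun h0 => ?_
    obtain ⟨a, b, hab⟩ := hna
    refine hab (commutatorElement_eq_one_iff_mul_comm.1 (mem_bot.1 (h0 ▸ ?_)))
    rw [_root_.commutator_def]
    exact commutator_mem_commutator (mem_top a) (mem_top b)
  have h1 := Subgroup.commutator_inf_eq_focalSubgroup S
  rw [hperf, top_inf_eq] at h1
  refine h1.le.trans ?_
  rw [focalSubgroup_def, closure_le]
  rintro g ⟨hg, x, hx, v, rfl⟩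
  exact h x hx v hg

theorem two_invols [Finite N] {E : Subgroup N} (hE : IsKleinFour E) (S : Sylow 2 N) :
    ∃ a ∈ (S : Subgroup N), ∃ b ∈ (S : Subgroup N), orderOf a = 2 ∧ orderOf b = 2 ∧ a ≠ b := by
  classical
  haveI : Fact (Nat.Prime 2) := ⟨Nat.prime_two⟩
  have hEp : IsPGroup 2 E := IsPGroup.of_card (n := 2) (by rw [hE.card_four]; norm_num)
  obtain ⟨Q, hEQ⟩ := hEp.exists_le_sylow
  obtain ⟨g, hg⟩ := MulAction.exists_smul_eq N Q S
  have hmem : ∀ e : E, g * (e : N) * g⁻¹ ∈ (S : Subgroup N) := fun e => by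
    rw [← hg, Sylow.coe_subgroup_smul]
    exact Subgroup.smul_mem_pointwise_smul (e : N) (MulAut.conj g) _ (hEQ e.2)
  have hord : ∀ e : E, e ≠ 1 → orderOf (g * (e : N) * g⁻¹) = 2 := fun e he => by
    rw [← MulAut.conj_apply, MulEquiv.orderOf_eq, Subgroup.orderOf_coe]
    exact orderOf_eq_prime (by rw [← hE.exponent_two]; exact Monoid.pow_exponent_eq_one e) he
  haveI := Fintype.ofFinite E
  have h4 : (Finset.univ : Finset E).card = 4 := by
    rw [Finset.card_univ, ← Nat.card_eq_fintype_card, hE.card_four]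
  obtain ⟨a, -, ha⟩ := Finset.exists_mem_ne (s := (Finset.univ : Finset E)) (by omega) 1
  obtain ⟨b, -, hb⟩ := Finset.exists_mem_notMem_of_card_lt_card (s := ({1, a} : Finset E))
    (t := (Finset.univ : Finset E)) (Finset.card_le_two.trans_lt (by omega))
  simp only [Finset.mem_insert, Finset.mem_singleton, not_or] at hb
  exact ⟨_, hmem a, _, hmem b, hord a ha, hord b hb.1, fun h =>
    hb.2 (Subtype.ext (mul_left_cancel (mul_right_cancel h)).symm)⟩

namespace Data

variable [Finite N] (D : Data N)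

/-- The centraliser of the involution. -/
abbrev C : Subgroup N := centralizer ({D.t} : Set N)

theorem le_cent {b : N} (hb : b ∈ D.B) : D.B ≤ centralizer ({b} : Set N) := fun x hx =>
  mem_centralizer_singleton_iff.2 (mul_comm_of_cyclic D.cyc hx hb)

theorem B_le : D.B ≤ D.C := D.le_cent D.t_mem

theorem t_ne : D.t ≠ 1 := fun h => by
  have := D.t_ord
  rw [h, orderOf_one] at this
  exact absurd this (by norm_num)

theorem conj_B {b x c : N} (hb : b ∈ D.B) (hb1 : b ≠ 1) (hx : x ∈ centralizer ({b} : Set N))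
    (hc : c ∈ D.B) : x * c * x⁻¹ ∈ D.B := by
  rcases (Nat.dvd_prime Nat.prime_two).1 (D.small b hb hb1) with h | h
  · have hle := relIndex_eq_one.1 h
    exact D.B.mul_mem (D.B.mul_mem (hle hx) hc) (D.B.inv_mem (hle hx))
  · haveI := Subgroup.normal_of_index_eq_two h
    exact this.conj_mem (⟨c, D.le_cent hb hc⟩ : centralizer ({b} : Set N)) hc ⟨x, hx⟩

theorem cent_le {b : N} (hb : b ∈ D.B) (hb1 : b ≠ 1) : centralizer ({b} : Set N) ≤ D.C := by
  intro x hx
  have h := unique_invol D.cyc (D.conj_B hb hb1 hx D.t_mem) D.t_mem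
    (by rw [← MulAut.conj_apply, MulEquiv.orderOf_eq, D.t_ord]) D.t_ord
  exact mem_centralizer_singleton_iff.2 (mul_inv_eq_iff_eq_mul.1 h)

theorem t_comm {x : N} (hx : x ∈ D.C) : x * D.t = D.t * x :=
  mem_centralizer_singleton_iff.1 hx

theorem sq_mem {x : N} (hx : x ∈ D.C) : x * x ∈ D.B := by
  rcases (Nat.dvd_prime Nat.prime_two).1 (D.small _ D.t_mem D.t_ne) with h | h
  · exact D.B.mul_mem (relIndex_eq_one.1 h hx) (relIndex_eq_one.1 h hx)
  · have := Subgroup.mul_self_mem_of_index_two h ⟨x, hx⟩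
    simpa [mem_subgroupOf] using this

theorem conj_C {x c : N} (hx : x ∈ D.C) (hc : c ∈ D.B) : x * c * x⁻¹ ∈ D.B :=
  D.conj_B D.t_mem D.t_ne hx hc

theorem odd_mem {x : N} (hx : x ∈ D.C) (ho : Odd (orderOf x)) : x ∈ D.B := by
  obtain ⟨k, hk⟩ := ho
  have h : x = (x * x) ^ (k + 1) := by
    rw [← pow_two, ← pow_mul, show 2 * (k + 1) = orderOf x + 1 by omega, pow_succ, pow_orderOf_eq_one,
      one_mul]
  rw [h]
  exact pow_mem (D.sq_mem hx) _

/-- A Sylow 2-subgroup in the centraliser. -/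
theorem exists_sylow : ∃ S : Sylow 2 N, (S : Subgroup N) ≤ D.C ∧ D.t ∈ (S : Subgroup N) := by
  haveI : Fact (Nat.Prime 2) := ⟨Nat.prime_two⟩
  obtain ⟨R⟩ := (inferInstance : Nonempty (Sylow 2 D.C))
  have hR : ¬ 2 ∣ (R.1.map D.C.subtype).index := by
    rw [index_map_subtype, Nat.Prime.dvd_mul Nat.prime_two]
    refine not_or.2 ⟨R.not_dvd_index, fun h2 => ?_⟩
    exact Nat.not_coprime_of_dvd_of_dvd one_lt_two
      (D.t_ord ▸ orderOf_dvd_natCard D.C (mem_centralizer_singleton_iff.2 rfl)) h2 D.cop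
  set S := IsPGroup.toSylow (R.2.map D.C.subtype) hR
  have hSC : (S : Subgroup N) ≤ D.C := map_subtype_le _
  refine ⟨S, hSC, ?_⟩
  have hnorm : zpowers D.t ≤ normalizer ((S : Subgroup N) : Set N) := by
    rw [zpowers_le, mem_normalizer_iff]
    intro h
    refine ⟨fun hh => ?_, fun hh => ?_⟩
    · rwa [← D.t_comm (hSC hh), mul_inv_cancel_right]
    · have h2 := D.t_comm (hSC hh)
      have e : h = D.t * h * D.t⁻¹ := by
        have h3 : D.t * h = D.t * (D.t * h * D.t⁻¹) := by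
          rw [← h2]; group
        exact mul_left_cancel h3
      rwa [e]
  have hp : IsPGroup 2 (zpowers D.t) :=
    IsPGroup.of_card (n := 1) (by rw [Nat.card_zpowers, D.t_ord]; norm_num)
  have hsup := IsPGroup.to_sup_of_normal_right' hp S.2 hnorm
  have := S.3 hsup le_sup_right
  exact this ▸ mem_sup_left (mem_zpowers D.t)

theorem index_two : D.B.relIndex D.C = 2 := by
  rcases (Nat.dvd_prime Nat.prime_two).1 (D.small _ D.t_mem D.t_ne) with h | h
  · obtain ⟨E, hE⟩ := D.klein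
    obtain ⟨S, hSC, -⟩ := D.exists_sylow
    obtain ⟨a, ha, b, hb, ha2, hb2, hne⟩ := two_invols hE S
    exact absurd (unique_invol D.cyc (relIndex_eq_one.1 h (hSC ha)) (relIndex_eq_one.1 h (hSC hb))
      ha2 hb2) hne
  · exact h

theorem mul_mem_B {x y : N} (hx : x ∈ D.C) (hy : y ∈ D.C) (hxB : x ∉ D.B) (hyB : y ∉ D.B) :
    x * y ∈ D.B := by
  have h := Subgroup.mul_mem_iff_of_index_two D.index_two (a := ⟨x, hx⟩) (b := ⟨y, hy⟩)
  simp only [mem_subgroupOf, Subgroup.coe_mul] at h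
  exact h.2 (iff_of_false hxB hyB)

variable (hs : IsSimpleGroup N) (hna : ∃ a b : N, a * b ≠ b * a)
variable {S : Sylow 2 N} (hSC : (S : Subgroup N) ≤ D.C) (htS : D.t ∈ (S : Subgroup N))

include hSC in
theorem exists_out : ∃ x ∈ (S : Subgroup N), x ∉ D.B := by
  by_contra! h
  haveI : Fact (Nat.Prime 2) := ⟨Nat.prime_two⟩
  have hrel : D.B.relIndex D.C = 2 := D.index_two
  have h2 : 2 ∣ (S : Subgroup N).index := by
    rw [← relIndex_mul_index (show (S : Subgroup N) ≤ D.B from h), ← relIndex_mul_index D.B_le, hrel]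
    exact Dvd.dvd.mul_left (Dvd.dvd.mul_right dvd_rfl _) _
  exact S.not_dvd_index h2

include hSC in
theorem relIndex_A : D.B.relIndex (S : Subgroup N) = 2 := by
  obtain ⟨x, hx, hxB⟩ := D.exists_out hSC
  rw [Subgroup.relIndex, Subgroup.index_eq_two_iff]
  refine ⟨⟨x, hx⟩, fun b => ?_⟩
  simp only [mem_subgroupOf, Subgroup.coe_mul]
  by_cases hb : (b : N) ∈ D.B
  · exact Or.inr ⟨hb, fun h => hxB ((D.B.mul_mem_cancel_left hb).1 h)⟩
  · exact Or.inl ⟨D.mul_mem_B (hSC b.2) (hSC hx) hb hxB, hb⟩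

include hs hna hSC htS in
theorem conj_t {x : N} (hx : orderOf x = 2) : ∃ g : N, g * x * g⁻¹ = D.t := by
  haveI : Fact (Nat.Prime 2) := ⟨Nat.prime_two⟩
  have hidx : ∃ m, ((S : Subgroup N) ⊓ D.B).index = 2 * m ∧ Odd m :=
    ⟨(S : Subgroup N).index, by
      rw [← relIndex_mul_index (inf_le_left : (S : Subgroup N) ⊓ D.B ≤ S), inf_relIndex_left,
        D.relIndex_A hSC],
      Nat.not_even_iff_odd.1 fun h => S.not_dvd_index (even_iff_two_dvd.1 h)⟩
  obtain ⟨g, hg⟩ := Fusion.exists_conj_mem_of_twice_odd_index hs hna _ hidx (x := x)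
    (by rw [← hx]; exact pow_orderOf_eq_one x)
  exact ⟨g, unique_invol D.cyc hg.2 D.t_mem
    (by rw [← MulAut.conj_apply, MulEquiv.orderOf_eq, hx]) D.t_ord⟩

include hSC htS in
theorem exists_invol_out : ∃ u ∈ (S : Subgroup N), u ∉ D.B ∧ orderOf u = 2 := by
  obtain ⟨E, hE⟩ := D.klein
  obtain ⟨a, ha, b, hb, ha2, hb2, hne⟩ := two_invols hE S
  by_cases haB : a ∈ D.B
  · exact ⟨b, hb, fun hbB => hne (unique_invol D.cyc haB hbB ha2 hb2), hb2⟩
  · exact ⟨a, ha, haB, ha2⟩

include hs hna hSC in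
/-- The Sylow 2-subgroup is generated by involutions and commutators. -/
theorem sylow_le (M : Subgroup N) (hinv : ∀ x ∈ (S : Subgroup N), x * x = 1 → x ∈ M)
    (hcom : ∀ x ∈ (S : Subgroup N), ∀ y ∈ (S : Subgroup N), ⁅x, y⁆ ∈ M) :
    (S : Subgroup N) ≤ M := by
  haveI : Fact (Nat.Prime 2) := ⟨Nat.prime_two⟩
  refine sylow_le_of_focal hs hna S M fun x hx v hv => ?_
  set y := v * x⁻¹ * v⁻¹ with hy
  have hxy : ⁅x, v⁆ = x * y := by rw [commutatorElement_def, hy]; group
  have hyS : y ∈ (S : Subgroup N) := by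
    have : y = x⁻¹ * ⁅x, v⁆ := by rw [hxy]; group
    rw [this]; exact mul_mem (inv_mem hx) hv
  by_cases hx2 : x * x = 1
  · have hy2 : y * y = 1 := by
      rw [hy, show v * x⁻¹ * v⁻¹ * (v * x⁻¹ * v⁻¹) = v * (x * x)⁻¹ * v⁻¹ by group, hx2]; group
    rw [hxy]
    exact mul_mem (hinv x hx hx2) (hinv y hyS hy2)
  obtain ⟨k, hk⟩ := IsPGroup.iff_orderOf.1 S.2 ⟨x, hx⟩
  rw [Subgroup.orderOf_mk] at hk
  obtain ⟨l, rfl⟩ : ∃ l, k = l + 2 := by
    refine ⟨k - 2, ?_⟩
    by_contra hlt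
    have hkl : k ≤ 1 := by omega
    refine hx2 ?_
    rw [← pow_two]
    exact orderOf_dvd_iff_pow_eq_one.1 (hk ▸ (show 2 ^ k ∣ 2 ^ 1 from pow_dvd_pow 2 hkl))
  have hpw : ∀ z ∈ (S : Subgroup N), orderOf z = 2 ^ (l + 2) → z ^ (2 ^ (l + 1)) = D.t := by
    intro z hz ho
    refine unique_invol D.cyc ?_ D.t_mem ?_ D.t_ord
    · rw [pow_succ', pow_mul, pow_two]
      exact pow_mem (D.sq_mem (hSC hz)) _
    · rw [show 2 ^ (l + 1) = orderOf z / 2 by rw [ho, pow_succ 2 (l + 1), Nat.mul_div_cancel _ two_pos]]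
      exact orderOf_pow_orderOf_div (orderOf_pos z).ne' (ho ▸ dvd_pow_self 2 (by omega))
  have hy' : orderOf y = 2 ^ (l + 2) := by
    rw [hy, ← MulAut.conj_apply, MulEquiv.orderOf_eq, orderOf_inv, hk]
  have hvC : v ∈ D.C := by
    refine mem_centralizer_singleton_iff.2 (mul_inv_eq_iff_eq_mul.1 ?_)
    have h1 := hpw y hyS hy'
    have h2 := hpw x⁻¹ (inv_mem hx) (by rw [orderOf_inv, hk])
    have h3 : MulAut.conj v (x⁻¹ ^ 2 ^ (l + 1)) = D.t := by
      rw [map_pow]; exact h1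
    rwa [h2, MulAut.conj_apply] at h3
  -- split off the part of odd order
  obtain ⟨s, hs', o, ho, rfl⟩ : ∃ s ∈ (S : Subgroup N), ∃ o : N, (o ∈ D.B ∧ Odd (orderOf o)) ∧
      v = s * o := by
    have hcomm : ∀ c ∈ D.B, ∃ a ∈ D.B, ∃ o : N, (∃ i, orderOf a = 2 ^ i) ∧
        (o ∈ D.B ∧ Odd (orderOf o)) ∧ c = a * o := by
      intro c hc
      obtain ⟨i, m, hm, hcm⟩ := Nat.exists_eq_two_pow_mul_odd (n := orderOf c) (orderOf_pos c).ne'
      have hcop : (2 ^ i).Coprime m := Nat.Coprime.pow_left _ (Nat.coprime_two_left.2 hm)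
      obtain ⟨α, β, hab⟩ : ∃ α β : ℤ, α * (2 ^ i : ℕ) + β * m = 1 :=
        ⟨Nat.gcdA (2 ^ i) m, Nat.gcdB (2 ^ i) m, by
          have := Nat.gcd_eq_gcd_ab (2 ^ i) m
          rw [hcop, Nat.cast_one] at this
          rw [this]; ring⟩
      have hz1 : (c ^ (β * (m : ℤ))) ^ (2 ^ i) = 1 := by
        rw [← zpow_natCast, ← zpow_mul]
        refine orderOf_dvd_iff_zpow_eq_one.1 ⟨β, ?_⟩
        rw [hcm]; push_cast; ring
      have hz2 : (c ^ (α * ((2 ^ i : ℕ) : ℤ))) ^ m = 1 := by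
        rw [← zpow_natCast, ← zpow_mul]
        refine orderOf_dvd_iff_zpow_eq_one.1 ⟨α, ?_⟩
        rw [hcm]; push_cast; ring
      refine ⟨c ^ (β * (m : ℤ)), zpow_mem hc _, c ^ (α * ((2 ^ i : ℕ) : ℤ)), ?_,
        ⟨zpow_mem hc _, hm.of_dvd_nat (orderOf_dvd_of_pow_eq_one hz2)⟩, ?_⟩
      · obtain ⟨j, -, hj⟩ := (Nat.dvd_prime_pow Nat.prime_two).1 (orderOf_dvd_of_pow_eq_one hz1)
        exact ⟨j, hj⟩
      · rw [← zpow_add, add_comm, hab, zpow_one]
    have hBS : ∀ a ∈ D.B, (∃ i, orderOf a = 2 ^ i) → a ∈ (S : Subgroup N) := by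
      intro a ha ⟨i, hi⟩
      have hnorm : (S : Subgroup N) ≤ normalizer (zpowers a : Set N) := by
        intro z hz
        have hzc : ∀ w ∈ zpowers a, z * w * z⁻¹ ∈ zpowers a := by
          intro w hw
          have hwB : w ∈ D.B := zpowers_le.2 ha hw
          have hzB := D.conj_C (hSC hz) hwB
          haveI := D.cyc
          have hsub : (zpowers (⟨a, ha⟩ : D.B)) = zpowers (⟨a, ha⟩ : D.B) := rfl
          obtain ⟨gB, hgB⟩ := IsCyclic.exists_generator (α := D.B)
          have hcard : orderOf (z * w * z⁻¹) ∣ orderOf a := by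
            rw [← MulAut.conj_apply, MulEquiv.orderOf_eq]
            obtain ⟨j, rfl⟩ := mem_zpowers_iff.1 hw
            exact orderOf_dvd_of_mem_zpowers (zpow_mem (mem_zpowers a) j)
          classical
          haveI : Fintype D.B := Fintype.ofFinite _
          have huniq := IsCyclic.card_pow_eq_one_le (α := D.B) (n := orderOf a) (orderOf_pos a)
          by_contra hnot
          set T : Finset D.B := Finset.univ.filter fun b => b ^ orderOf a = 1
          set U : Finset D.B := (Finset.univ : Finset D.B).filter fun b => (b : N) ∈ zpowers a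
          have hUT : insert ⟨_, hzB⟩ U ⊆ T := by
            intro b hb
            refine Finset.mem_filter.2 ⟨Finset.mem_univ _, Subtype.ext ?_⟩
            rw [SubmonoidClass.coe_pow, OneMemClass.coe_one, ← orderOf_dvd_iff_pow_eq_one]
            rcases Finset.mem_insert.1 hb with rfl | hb
            · exact hcard
            · exact orderOf_dvd_of_mem_zpowers (Finset.mem_filter.1 hb).2
          have hU : U.card = orderOf a := by
            rw [← Nat.card_zpowers, ← Fintype.card_subtype, ← Nat.card_eq_fintype_card]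
            exact Nat.card_congr ⟨fun b => ⟨b.1, b.2⟩, fun b => ⟨⟨b.1, zpowers_le.2 ha b.2⟩, b.2⟩,
              fun _ => rfl, fun _ => rfl⟩
          have hnU : (⟨_, hzB⟩ : D.B) ∉ U := fun h => hnot (Finset.mem_filter.1 h).2
          have := Finset.card_le_card hUT
          rw [Finset.card_insert_of_notMem hnU, hU] at this
          omega
        exact mem_normalizer_iff.2 fun w => ⟨hzc w, fun hw => by
          have hcw : ∀ n : ℕ, z ^ n * w * (z ^ n)⁻¹ ∈ zpowers a → ∀ j, z ^ (n + j) * w * (z ^ (n + j))⁻¹ ∈ zpowers a := by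
            intro n h j
            induction j with
            | zero => exact h
            | succ j ih =>
              have := hzc _ ih
              rw [show n + (j + 1) = (n + j) + 1 from rfl, pow_succ']
              simpa [mul_assoc] using this
          have h1 := hcw 1 (by simpa using hw) (orderOf z - 1)
          rw [show 1 + (orderOf z - 1) = orderOf z by have := orderOf_pos z; omega,
            pow_orderOf_eq_one] at h1
          simpa using h1⟩
      have hp : IsPGroup 2 (zpowers a) := IsPGroup.of_card (n := i) (by rw [Nat.card_zpowers, hi])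
      have hsup := IsPGroup.to_sup_of_normal_right' S.2 hp hnorm
      exact S.3 hsup le_sup_left ▸ mem_sup_right (mem_zpowers a)
    obtain ⟨x₀, hx₀, hx₀B⟩ := D.exists_out hSC
    by_cases hvB : v ∈ D.B
    · obtain ⟨a, ha, o, hai, ho, rfl⟩ := hcomm v hvB
      exact ⟨a, hBS a ha hai, o, ho, rfl⟩
    · obtain ⟨a, ha, o, hai, ho, hc⟩ := hcomm (x₀⁻¹ * v)
        (D.mul_mem_B (inv_mem (hSC hx₀)) hvC (fun h => hx₀B (by simpa using D.B.inv_mem h)) hvB)
      exact ⟨x₀ * a, mul_mem hx₀ (hBS a ha hai), o, ho, by rw [mul_assoc, ← hc]; group⟩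
  -- the odd part centralises `x`
  have hox : x * o * x⁻¹ * o⁻¹ = 1 := by
    have h1 : x * o * x⁻¹ * o⁻¹ ∈ (S : Subgroup N) := by
      have : o * x⁻¹ * o⁻¹ = s⁻¹ * y * s := by rw [hy]; group
      rw [show x * o * x⁻¹ * o⁻¹ = x * (o * x⁻¹ * o⁻¹) by group, this]
      exact mul_mem hx (mul_mem (mul_mem (inv_mem hs') hyS) hs')
    have h2 : orderOf (x * o * x⁻¹ * o⁻¹) ∣ orderOf o := by
      refine orderOf_dvd_of_pow_eq_one ?_
      have hc : Commute (x * o * x⁻¹) o⁻¹ :=
        mul_comm_of_cyclic D.cyc (D.conj_C (hSC hx) ho.1) (D.B.inv_mem ho.1)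
      rw [hc.mul_pow, conj_pow, pow_orderOf_eq_one, inv_pow, pow_orderOf_eq_one]; group
    obtain ⟨i, hi⟩ := IsPGroup.iff_orderOf.1 S.2 ⟨_, h1⟩
    rw [Subgroup.orderOf_mk] at hi
    rcases Nat.eq_zero_or_pos i with rfl | hpos
    · exact orderOf_eq_one_iff.1 (by simpa using hi)
    · exact absurd ((hi ▸ dvd_pow_self 2 hpos.ne' : 2 ∣ orderOf (x * o * x⁻¹ * o⁻¹)).trans h2)
        (fun hh => Nat.not_even_iff_odd.2 ho.2 (even_iff_two_dvd.2 hh))
  have hox' : x * o = o * x := by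
    rw [← mul_inv_eq_iff_eq_mul]; exact mul_inv_eq_one.1 hox
  have : ⁅x, s * o⁆ = ⁅x, s⁆ := by
    simp only [commutatorElement_def]
    rw [show x * (s * o) * x⁻¹ * (s * o)⁻¹ = x * s * (o * x⁻¹ * o⁻¹) * s⁻¹ by group,
      show o * x⁻¹ * o⁻¹ = x⁻¹ by
        rw [mul_inv_eq_iff_eq_mul]
        exact (Commute.inv_left (show Commute x o from hox')).symm]
    try group
  rw [this]
  exact hcom x hx s hs'

include hs hna hSC htS in
theorem sq_eq_one {x : N} (hx : x ∈ (S : Subgroup N)) (hxB : x ∉ D.B) : x * x = 1 := by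
  obtain ⟨u, huS, huB, hu2⟩ := D.exists_invol_out hSC htS
  haveI := D.cyc
  set A := (S : Subgroup N) ⊓ D.B with hA
  haveI hAc : IsCyclic A := Subgroup.isCyclic_of_le (inf_le_right : A ≤ D.B)
  obtain ⟨⟨a, ha⟩, hgen⟩ := IsCyclic.exists_generator (α := A)
  have hagen : ∀ z ∈ A, ∃ i : ℤ, a ^ i = z := fun z hz => by
    obtain ⟨i, hi⟩ := mem_zpowers_iff.1 (hgen ⟨z, hz⟩)
    exact ⟨i, by simpa using congrArg Subtype.val hi⟩
  have hnA : ∀ {z}, z ∈ (S : Subgroup N) → ∀ {w}, w ∈ A → z * w * z⁻¹ ∈ A := fun hz _ hw =>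
    Subgroup.mem_inf.2 ⟨mul_mem (mul_mem hz (Subgroup.mem_inf.1 hw).1) (inv_mem hz),
      D.conj_C (hSC hz) (Subgroup.mem_inf.1 hw).2⟩
  have huu : u * u = 1 := by rw [← pow_two, ← hu2, pow_orderOf_eq_one]
  obtain ⟨r, hr⟩ := hagen _ (hnA huS ha)
  have hcoset : ∀ z ∈ (S : Subgroup N), z ∉ D.B → ∃ i : ℤ, z = u * a ^ i := fun z hz hzB => by
    obtain ⟨i, hi⟩ := hagen (u * z) ⟨mul_mem huS hz, D.mul_mem_B (hSC huS) (hSC hz) huB hzB⟩
    exact ⟨i, by rw [hi, ← mul_assoc, huu, one_mul]⟩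
  have hsq : ∀ i : ℤ, (u * a ^ i) * (u * a ^ i) = a ^ (i * (r + 1)) := fun i => by
    have hui : u⁻¹ = u := inv_eq_of_mul_eq_one_right huu
    calc u * a ^ i * (u * a ^ i) = (u * a ^ i * u⁻¹) * a ^ i := by rw [hui]; group
      _ = (a ^ r) ^ i * a ^ i := by rw [hr, conj_zpow]
      _ = a ^ (i * (r + 1)) := by rw [← zpow_mul, ← zpow_add]; congr 1; ring
  obtain ⟨i₀, rfl⟩ := hcoset x hx hxB
  rw [hsq]
  by_contra hne
  obtain ⟨k, hk⟩ := IsPGroup.iff_orderOf.1 S.2 ⟨a, ha.1⟩
  rw [Subgroup.orderOf_mk] at hk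
  have hd : ¬ ((2 : ℤ) ^ k ∣ r + 1) := fun h => hne (orderOf_dvd_iff_zpow_eq_one.1
    (by rw [hk]; exact dvd_mul_of_dvd_right (by exact_mod_cast h) _))
  have hk1 : 1 ≤ k := by
    rcases Nat.eq_zero_or_pos k with rfl | h
    · exact absurd (by simp) hd
    · exact h
  have h2k : (2 : ℤ) ∣ 2 ^ k := dvd_pow_self 2 (by omega)
  have hrodd : Odd r := by
    by_contra hev
    obtain ⟨j, hj⟩ := Int.not_odd_iff_even.1 hev
    have h1 : orderOf (a ^ r) = 2 ^ k := by rw [hr, ← MulAut.conj_apply, MulEquiv.orderOf_eq, hk]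
    have h2 : (a ^ r) ^ (2 ^ (k - 1)) = 1 := by
      rw [← zpow_natCast, ← zpow_mul, ← orderOf_dvd_iff_zpow_eq_one, hk]
      refine ⟨j, ?_⟩
      obtain ⟨c, rfl⟩ : ∃ c, k = c + 1 := ⟨k - 1, by omega⟩
      rw [hj, Nat.add_sub_cancel]; push_cast; ring
    have h3 := orderOf_dvd_of_pow_eq_one h2
    rw [h1] at h3
    have := Nat.le_of_dvd (pow_pos two_pos _) h3
    have := Nat.pow_lt_pow_right (show 1 < 2 by norm_num) (show k - 1 < k by omega)
    omega
  have ha2 : a * a ∈ zpowers (a * a) := mem_zpowers _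
  -- the proper subgroup
  let K : Subgroup N :=
    { carrier := {z | z ∈ zpowers (a * a) ∨ u * z ∈ zpowers (a * a)}
      one_mem' := Or.inl (one_mem _)
      mul_mem' := by
        have hua : ∀ z ∈ zpowers (a * a), u * z * u ∈ zpowers (a * a) := by
          intro z hz
          obtain ⟨j, rfl⟩ := mem_zpowers_iff.1 hz
          refine mem_zpowers_iff.2 ⟨r * j, ?_⟩
          have hui : u⁻¹ = u := inv_eq_of_mul_eq_one_right huu
          have : u * (a * a) ^ j * u⁻¹ = (a * a) ^ (r * j) := by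
            rw [← conj_zpow, show u * (a * a) * u⁻¹ = (u * a * u⁻¹) * (u * a * u⁻¹) by group, ← hr,
              ← zpow_add, ← zpow_mul, ← pow_two, ← zpow_natCast, ← zpow_mul]
            congr 1; push_cast; ring
          rw [hui] at this
          exact this.symm
        rintro z z' (hz | hz) (hz' | hz')
        · exact Or.inl (mul_mem hz hz')
        · refine Or.inr ?_
          rw [show u * (z * z') = (u * z * u) * (u * z') by
            rw [show u * z * u * (u * z') = u * z * (u * u) * z' by group, huu]; group]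
          exact mul_mem (hua z hz) hz'
        · refine Or.inr ?_
          rw [← mul_assoc]; exact mul_mem hz hz'
        · refine Or.inl ?_
          have : z * z' = u * (u * z) * u * (u * z') := by
            rw [show u * (u * z) * u * (u * z') = (u * u) * z * (u * u) * z' by group, huu]; group
          rw [this]; exact mul_mem (hua _ hz) hz'
      inv_mem' := by
        have hua : ∀ z ∈ zpowers (a * a), u * z * u ∈ zpowers (a * a) := by
          intro z hz
          obtain ⟨j, rfl⟩ := mem_zpowers_iff.1 hz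
          refine mem_zpowers_iff.2 ⟨r * j, ?_⟩
          have hui : u⁻¹ = u := inv_eq_of_mul_eq_one_right huu
          have : u * (a * a) ^ j * u⁻¹ = (a * a) ^ (r * j) := by
            rw [← conj_zpow, show u * (a * a) * u⁻¹ = (u * a * u⁻¹) * (u * a * u⁻¹) by group, ← hr,
              ← zpow_add, ← zpow_mul, ← pow_two, ← zpow_natCast, ← zpow_mul]
            congr 1; push_cast; ring
          rw [hui] at this
          exact this.symm
        rintro z (hz | hz)
        · exact Or.inl (inv_mem hz)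
        · refine Or.inr ?_
          rw [show u * z⁻¹ = u * (u * z)⁻¹ * u by group]
          exact hua _ (inv_mem hz) }
  have hKeven : ∀ i : ℤ, (2 : ℤ) ∣ i → a ^ i ∈ zpowers (a * a) := by
    rintro i ⟨j, rfl⟩
    exact mem_zpowers_iff.2 ⟨j, by rw [← pow_two, ← zpow_natCast, ← zpow_mul]; norm_num⟩
  have hle := D.sylow_le hs hna hSC K (fun z hz hz2 => ?_) (fun z hz z' hz' => ?_)
  · rcases hle ha.1 with h | h
    · obtain ⟨j, hj⟩ := mem_zpowers_iff.1 h
      have h1 : a ^ (1 - 2 * j : ℤ) = 1 := by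
        rw [zpow_sub, zpow_one, zpow_mul, zpow_ofNat, pow_two, hj, mul_inv_cancel]
      rw [← orderOf_dvd_iff_zpow_eq_one, hk] at h1
      have := h2k.trans (by exact_mod_cast h1)
      omega
    · obtain ⟨j, hj⟩ := mem_zpowers_iff.1 h
      refine huB ?_
      rw [show u = (a * a) ^ j * a⁻¹ by rw [hj]; group]
      exact mul_mem (zpow_mem (mul_mem (Subgroup.mem_inf.1 ha).2 (Subgroup.mem_inf.1 ha).2) _) (inv_mem (Subgroup.mem_inf.1 ha).2)
  · by_cases hzB : z ∈ D.B
    · obtain ⟨i, rfl⟩ := hagen z ⟨hz, hzB⟩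
      refine Or.inl (hKeven i ?_)
      rw [← pow_two, ← zpow_natCast, ← zpow_mul, ← orderOf_dvd_iff_zpow_eq_one, hk] at hz2
      by_contra hi
      have hk2 : 2 ≤ k := by
        by_contra hlt
        have : k = 1 := by omega
        subst this
        obtain ⟨j, hj⟩ := hrodd
        exact hd ⟨j + 1, by rw [hj]; ring⟩
      have h4 : (4 : ℤ) ∣ i * ((2 : ℕ) : ℤ) :=
        dvd_trans (by
          obtain ⟨c, rfl⟩ : ∃ c, k = c + 2 := ⟨k - 2, by omega⟩
          exact ⟨2 ^ c, by push_cast; ring⟩) hz2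
      omega
    · obtain ⟨i, rfl⟩ := hcoset z hz hzB
      refine Or.inr ?_
      rw [← mul_assoc, huu, one_mul]
      rw [hsq, ← orderOf_dvd_iff_zpow_eq_one, hk] at hz2
      refine hKeven i ?_
      by_contra hi
      refine hd (Int.dvd_of_dvd_mul_right_of_gcd_one (b := i) (by exact_mod_cast hz2) ?_)
      rw [← Int.isCoprime_iff_gcd_eq_one]
      exact IsCoprime.pow_left ((Int.prime_two.coprime_iff_not_dvd).2 hi)
  · -- commutators
    have hform : ∀ w ∈ (S : Subgroup N), ∃ i : ℤ, w = a ^ i ∨ w = u * a ^ i := fun w hw => by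
      by_cases hwB : w ∈ D.B
      · obtain ⟨i, hi⟩ := hagen w ⟨hw, hwB⟩; exact ⟨i, Or.inl hi.symm⟩
      · obtain ⟨i, hi⟩ := hcoset w hw hwB; exact ⟨i, Or.inr hi⟩
    have hmv : ∀ i : ℤ, a ^ i * u = u * a ^ (r * i) := fun i => by
      have hui : u⁻¹ = u := inv_eq_of_mul_eq_one_right huu
      rw [zpow_mul, hr, conj_zpow, hui, ← mul_assoc, ← mul_assoc, huu, one_mul]
    obtain ⟨r', hr'⟩ := hrodd
    obtain ⟨i, rfl | rfl⟩ := hform z hz <;> obtain ⟨j, rfl | rfl⟩ := hform z' hz' <;>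
      refine Or.inl ?_ <;> rw [commutatorElement_def]
    · rw [(Commute.zpow_zpow_self a i j).eq]; simp
    · rw [show a ^ i * (u * a ^ j) * (a ^ i)⁻¹ * (u * a ^ j)⁻¹ = (a ^ i * u) * a ^ (-i) * u⁻¹ by
          rw [← zpow_neg, show a ^ i * (u * a ^ j) * a ^ (-i) = a ^ i * u * (a ^ j * a ^ (-i)) by group,
            ← zpow_add, add_comm, zpow_add]; group]
      rw [hmv, mul_assoc u, ← zpow_add, ← conj_zpow, ← hr, ← zpow_mul]
      exact hKeven _ ⟨r * (r' * i), by rw [hr']; ring⟩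
    · rw [show (u * a ^ i) * a ^ j * (u * a ^ i)⁻¹ * (a ^ j)⁻¹ = u * a ^ j * u⁻¹ * a ^ (-j) by
          rw [mul_assoc u, ← zpow_add, add_comm, zpow_add]; group,
        ← conj_zpow, ← hr, ← zpow_mul, ← zpow_add]
      exact hKeven _ ⟨r' * j, by rw [hr']; ring⟩
    · rw [show (u * a ^ i) * (u * a ^ j) * (u * a ^ i)⁻¹ * (u * a ^ j)⁻¹ =
          (u * a ^ i * u⁻¹) * (u * u) * (a ^ j * a ^ (-i)) * (u⁻¹ * a ^ (-j)) * u⁻¹ by group,
        huu, mul_one, ← zpow_add, ← conj_zpow, ← hr, ← zpow_mul]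
      have hui : u⁻¹ = u := inv_eq_of_mul_eq_one_right huu
      rw [hui, show a ^ (r * i) * a ^ (j + -i) * (u * a ^ (-j)) * u =
        a ^ (r * i) * a ^ (j + -i) * (u * a ^ (-j) * u) by group]
      have : u * a ^ (-j) * u = a ^ (r * (-j)) := by
        nth_rw 2 [← hui]; rw [← conj_zpow, ← hr, ← zpow_mul]
      rw [this, ← zpow_add, ← zpow_add]
      exact hKeven _ ⟨r' * (i - j), by rw [hr']; ring⟩

end Data

end Cfsg.Agent.Lib.PSLSpec
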